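import Cfsg.Agent.Polar.MinU

set_option autoImplicit false

namespace Cfsg.Agent.Polar

theorem uar_odd_sing {q a k N : ℕ} (hq : 2 ≤ q) (ha : 1 ≤ a) (h1 : (q ^ 2 - 1) * k + 1 = N)
    (h2 : q * N + q * (a * q ^ 2) = (a * q ^ 2) ^ 2 + 1 * (a * q ^ 2)) :
    (q ^ 2 - 1) * k = (a * q ^ 2 + 1) * (a * q - 1) := by
  have h3 : 1 ≤ a * q := Nat.mul_pos ha (by omega)
  have h4 : 1 ≤ q ^ 2 := Nat.one_le_pow _ _ (by omega)
  subst h1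
  zify [h3, h4] at h2 ⊢
  have h5 : (q : ℤ) ≠ 0 := by omega
  exact mul_left_cancel₀ h5 (by linear_combination h2)

theorem uar_even_sing {q a k N : ℕ} (hq : 2 ≤ q) (ha : 1 ≤ a) (h1 : (q ^ 2 - 1) * k + 1 = N)
    (h2 : q * N + 1 * (a * q ^ 2) = (a * q ^ 2) ^ 2 + q * (a * q ^ 2)) :
    (q ^ 2 - 1) * k = (a * q ^ 2 - 1) * (a * q + 1) := by
  have h4 : 1 ≤ q ^ 2 := Nat.one_le_pow _ _ (by omega)
  have h3 : 1 ≤ a * q ^ 2 := Nat.mul_pos ha h4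
  subst h1
  zify [h3, h4] at h2 ⊢
  have h5 : (q : ℤ) ≠ 0 := by omega
  exact mul_left_cancel₀ h5 (by linear_combination h2)

theorem uar_div {q k M : ℕ} (hq : 2 ≤ q) (h : (q ^ 2 - 1) * k = M) : M / (q ^ 2 - 1) = k := by
  have h4 : 2 ^ 2 ≤ q ^ 2 := Nat.pow_le_pow_left hq 2
  rw [← h, Nat.mul_div_cancel_left _ (by omega)]

theorem uar_le {q k l : ℕ} (hq : 2 ≤ q) (h : (q ^ 2 - 1) * k ≤ (q ^ 2 - 1) * l) : k ≤ l := by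
  have h4 : 2 ^ 2 ≤ q ^ 2 := Nat.pow_le_pow_left hq 2
  exact Nat.le_of_mul_le_mul_left h (by omega)

theorem uar_odd_h1 {q a k : ℕ} (hq : 2 ≤ q) (ha : 1 ≤ a)
    (h : (q ^ 2 - 1) * k = (a * q ^ 2 + 1) * (a * q - 1)) : k ≤ (q + 1) * (a * a) := by
  refine uar_le hq (h ▸ ?_)
  have h3 : 1 ≤ a * q := Nat.mul_pos ha (by omega)
  have h4 : 1 ≤ q ^ 2 := Nat.one_le_pow _ _ (by omega)
  zify [h3, h4] at *
  have h5 : (0 : ℤ) ≤ q ^ 2 - q - 1 := by nlinarith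
  have h6 : (0 : ℤ) ≤ a * (q ^ 2 - q) := by apply mul_nonneg <;> nlinarith
  nlinarith [mul_nonneg h5 (mul_self_nonneg (a : ℤ))]

theorem uar_even_h1 {q a k : ℕ} (hq : 2 ≤ q) (ha : 2 ≤ a)
    (h : (q ^ 2 - 1) * k = (a * q ^ 2 - 1) * (a * q + 1)) : k ≤ (q + 1) * (a * a) := by
  refine uar_le hq (h ▸ ?_)
  have h4 : 1 ≤ q ^ 2 := Nat.one_le_pow _ _ (by omega)
  have h3 : 1 ≤ a * q ^ 2 := Nat.mul_pos (by omega) h4
  zify [h3, h4] at *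
  have h5 : (1 : ℤ) ≤ q ^ 2 - q - 1 := by nlinarith
  have h6 : (q ^ 2 - q : ℤ) ≤ (q ^ 2 - q - 1) * a := by nlinarith
  nlinarith [mul_le_mul_of_nonneg_right h6 (show (0 : ℤ) ≤ a by omega)]

theorem uar_odd_non {q a k l N : ℕ} (hq : 2 ≤ q) (ha : 1 ≤ a)
    (h : (q ^ 2 - 1) * k = (a * q ^ 2 + 1) * (a * q - 1)) (h1 : N = l * (q + 1))
    (h2 : q * N + 0 * (a * q ^ 2) = (a * q ^ 2) ^ 2 + 1 * (a * q ^ 2)) : k ≤ l := by
  refine uar_le hq (h ▸ ?_)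
  have h3 : 1 ≤ a * q := Nat.mul_pos ha (by omega)
  have h4 : 1 ≤ q ^ 2 := Nat.one_le_pow _ _ (by omega)
  subst h1
  zify [h3, h4] at *
  have h5 : (q : ℤ) ≠ 0 := by omega
  have h6 : (l * (q + 1) : ℤ) = a ^ 2 * q ^ 3 + a * q :=
    mul_left_cancel₀ h5 (by linear_combination h2)
  have h7 : (0 : ℤ) ≤ l * (q + 1) := by positivity
  have h8 : (0 : ℤ) ≤ a * q ^ 2 := by positivity
  nlinarith [mul_le_mul_of_nonneg_right (show (1 : ℤ) ≤ q - 1 by omega) h7]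

theorem uar_even_non {q a k l N : ℕ} (hq : 3 ≤ q) (ha : 1 ≤ a)
    (h : (q ^ 2 - 1) * k = (a * q ^ 2 - 1) * (a * q + 1)) (h1 : N = l * (q + 1))
    (h2 : q * N + 1 * (a * q ^ 2) = (a * q ^ 2) ^ 2 + 0 * (a * q ^ 2)) : k ≤ l := by
  refine uar_le (q := q) (by omega) (h ▸ ?_)
  have h4 : 1 ≤ q ^ 2 := Nat.one_le_pow _ _ (by omega)
  have h3 : 1 ≤ a * q ^ 2 := Nat.mul_pos ha h4
  subst h1
  zify [h3, h4] at *
  have h5 : (q : ℤ) ≠ 0 := by omega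
  have h6 : (l * (q + 1) : ℤ) = a ^ 2 * q ^ 3 - a * q :=
    mul_left_cancel₀ h5 (by linear_combination h2)
  have h7 : (0 : ℤ) ≤ l * (q + 1) := by positivity
  have h8 : (a * q ^ 2 + a * q : ℤ) ≤ a ^ 2 * q ^ 3 := by
    have h9 : (q + 1 : ℤ) ≤ a * q ^ 2 := by nlinarith
    nlinarith [mul_le_mul_of_nonneg_left h9 (show (0 : ℤ) ≤ a * q by positivity)]
  nlinarith [mul_le_mul_of_nonneg_right (show (2 : ℤ) ≤ q - 1 by omega) h7]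

end Cfsg.Agent.Polar
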